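/- Spec of the PS tower (S0725): the Praeger-Saxl bound by random bases. Blueprint: blueprints/PS.md. -/
import Cfsg.Agent.Base

set_option autoImplicit false
set_option linter.unusedSectionVars false

namespace H39.PS
open Equiv MulAction Finset

universe u

section
variable {α : Type u} [Fintype α] [DecidableEq α]

/-- The extension operator: `T^[s] f S` sums `f` over all ordered extensions of `S` by `s` points. -/
noncomputable def T (f : Finset α → ℝ) (S : Finset α) : ℝ := ∑ x ∈ Sᶜ, f (insert x S)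

theorem T_succ (f : Finset α → ℝ) (s : ℕ) (S : Finset α) :
    T^[s + 1] f S = ∑ x ∈ Sᶜ, T^[s] f (insert x S) := by
  rw [Function.iterate_succ_apply']; rfl

/-- Only the supersets of `S` with `S.card + s` points matter. -/
theorem T_mono {f g : Finset α → ℝ} (s : ℕ) (S : Finset α)
    (h : ∀ U, S ⊆ U → U.card = S.card + s → f U ≤ g U) : T^[s] f S ≤ T^[s] g S := by
  induction s generalizing S with
  | zero => exact h S subset_rfl rfl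
  | succ s ih =>
    rw [T_succ, T_succ]
    refine sum_le_sum fun x hx => ih _ fun U hU hc => h U ((subset_insert x S).trans hU) ?_
    rw [hc, card_insert_of_notMem (mem_compl.1 hx)]; omega

/-- The pointwise stabiliser. -/
def fx (G : Subgroup (Perm α)) (S : Finset α) : Subgroup (Perm α) :=
  G ⊓ fixingSubgroup (Perm α) (S : Set α)

theorem mem_fx {G : Subgroup (Perm α)} {S : Finset α} {g : Perm α} :
    g ∈ fx G S ↔ g ∈ G ∧ ∀ a ∈ S, g a = a := by simp [fx, mem_fixingSubgroup_iff]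

open Classical in
/-- `a` and `b` lie outside `S` and are not separated by `S`. -/
noncomputable def un (G : Subgroup (Perm α)) (a b : α) (S : Finset α) : ℝ :=
  if a ∉ S ∧ b ∉ S ∧ ∃ g ∈ fx G S, g a = b then 1 else 0

open Classical in
/-- `S` misses `F` and is independent in `Γ`. -/
noncomputable def ind (Γ : α → α → Prop) (F S : Finset α) : ℝ :=
  if Disjoint F S ∧ ∀ x ∈ S, ∀ y ∈ S, ¬ Γ x y then 1 else 0

open Classical in
/-- A graph on `W` with degrees at most `2v` and at least `v (|W| - v)` edges. -/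
structure Gr (Γ : α → α → Prop) (W : Finset α) (v : ℕ) : Prop where
  symm : ∀ x y, Γ x y → Γ y x
  mem : ∀ x y, Γ x y → x ∈ W ∧ y ∈ W ∧ x ≠ y
  deg : ∀ x, (univ.filter fun y => Γ x y).card ≤ 2 * v
  edg : 2 * v * (W.card - v) ≤ (univ.filter fun p : α × α => Γ p.1 p.2).card

/-- The stabiliser of `S` is 2-transitive outside `S`. -/
def Two (G : Subgroup (Perm α)) (S : Finset α) : Prop :=
  ∀ a ∉ S, ∀ b ∉ S, ∀ c ∉ S, ∀ d ∉ S, a ≠ b → c ≠ d → ∃ g ∈ fx G S, g a = c ∧ g b = d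

/-- The stabiliser of `S` is 3-transitive outside `S`. -/
def Three (G : Subgroup (Perm α)) (S : Finset α) : Prop :=
  ∀ a ∉ S, ∀ b ∉ S, ∀ c ∉ S, ∀ a' ∉ S, ∀ b' ∉ S, ∀ c' ∉ S, a ≠ b → a ≠ c → b ≠ c → a' ≠ b' →
    a' ≠ c' → b' ≠ c' → ∃ g ∈ fx G S, g a = a' ∧ g b = b' ∧ g c = c'
end

/-! ### Arithmetic -/

noncomputable def Pr (N : ℕ) (Q : ℕ → ℝ) : ℝ := ∏ s ∈ range N, (1 + ((N - 1 - s : ℕ) : ℝ) * Q s)

/-- One step of the bound `Q l * y l ^ (number of forbidden points)`. -/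
structure Step (w v : ℕ) (y ε η Q y' Q' : ℝ) : Prop where
  y0 : 0 ≤ y
  y1 : y ≤ 1
  e0 : 0 ≤ ε
  e1 : 2 * ε ≤ 1
  h0 : 0 ≤ η
  q0 : 0 ≤ Q
  pw : y ^ (2 * v) ≤ 1 - ε
  et : η * w ≤ ε * ((w : ℝ) - v)
  ys : y * (1 - (1 - 2 * ε) / w) ≤ y'
  qs : Q * (1 - η) ≤ Q'

def Par (w v : ℕ) (Q : ℕ → ℝ) : Prop :=
  Q 0 = 1 ∧ ∃ y ε η : ℕ → ℝ, y 0 = 1 ∧ ∀ l, Step w v (y l) (ε l) (η l) (Q l) (y (l + 1)) (Q (l + 1))

/-- The hypotheses of S4220. -/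
def Mil (n r : ℕ) : Prop :=
  ∃ k p : ℕ, p.Prime ∧ n = k * p + r ∧ 1 ≤ k ∧ k < p ∧ k < r ∧ ¬ (k = 1 ∧ r = 2)

def Num2 (n : ℕ) : Prop := ∃ r, Mil n r ∧ ∀ t v, 2 ≤ t → t ≤ r → 1 ≤ v → 2 * v ≤ n - t →
  ∃ Q, Par (n - t) v Q ∧ (n.descFactorial (t - 2) : ℝ) * Pr (n - t + 2) Q ≤ 4 ^ n

noncomputable def Qu (N d s : ℕ) : ℝ := ((N - d).descFactorial s : ℝ) / ((N - 2).descFactorial s : ℝ)

def NumU (N : ℕ) : Prop := ∀ d, 2 * N ≤ 3 * d ^ 2 → Pr N (Qu N d) ≤ 4 ^ N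

def N2a : Prop := ∀ n, 22 ≤ n → n < 2 ^ 17 → Num2 n
def N2b : Prop := ∀ n, 2 ^ 17 ≤ n → Num2 n
def NUa : Prop := ∀ n, 22 ≤ n → n < 2 ^ 17 → NumU n
def NUb : Prop := ∀ n, 2 ^ 17 ≤ n → NumU n

/-! ### Combinatorics and groups -/

def Ent : Prop := ∀ (α : Type u) [Fintype α] [DecidableEq α] (G : Subgroup (Perm α)) (S : Finset α)
  (Q : ℕ → ℝ), (∀ s, 0 ≤ Q s) → (∀ a ∉ S, ∀ b ∉ S, a ≠ b → ∀ s,
    T^[s] (un G a b) S ≤ ((Sᶜ.card - 2).descFactorial s : ℝ) * Q s) →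
  (Nat.card (fx G S) : ℝ) ≤ Pr Sᶜ.card Q

def Ind : Prop := ∀ (α : Type u) [Fintype α] [DecidableEq α] (Γ : α → α → Prop) (S F : Finset α)
  (v : ℕ) (Q : ℕ → ℝ), Disjoint F S → 1 ≤ v → 2 * v ≤ (S ∪ F)ᶜ.card → Gr Γ (S ∪ F)ᶜ v →
  Par (S ∪ F)ᶜ.card v Q → ∀ s, T^[s] (ind Γ F) S ≤ ((S ∪ F)ᶜ.card.descFactorial s : ℝ) * Q s

def Tri : Prop := ∀ (α : Type u) [Fintype α] [DecidableEq α] (G : Subgroup (Perm α)) (S : Finset α),
  Two G S → ¬ Three G S → ∃ v, 1 ≤ v ∧ 2 * v ≤ Sᶜ.card - 2 ∧ ∀ a ∉ S, ∀ b ∉ S, a ≠ b →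
    ∃ Γ : α → α → Prop, Gr Γ (S ∪ {a, b})ᶜ v ∧ ∀ U, S ⊆ U → un G a b U ≤ ind Γ {a, b} U

def Uni : Prop := ∀ (α : Type u) [Fintype α] [DecidableEq α] (G : Subgroup (Perm α)),
  22 ≤ Fintype.card α → IsPreprimitive G α → ¬ IsMultiplyPretransitive G α 2 → ∀ a b : α, a ≠ b →
    ∃ D : Finset α, a ∈ D ∧ b ∈ D ∧ 2 * Fintype.card α ≤ 3 * D.card ^ 2 ∧
      ∀ c ∈ D, ∀ g ∈ G, g c = c → g a ≠ b

def Red : Prop := ∀ (α : Type u) [Fintype α] [DecidableEq α] (G : Subgroup (Perm α)) (t : ℕ),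
  2 ≤ t → t + 1 ≤ Fintype.card α → IsMultiplyPretransitive G α t →
  ¬ IsMultiplyPretransitive G α (t + 1) → ∃ S : Finset α, S.card = t - 2 ∧
    Nat.card G = (Fintype.card α).descFactorial (t - 2) * Nat.card (fx G S) ∧ Two G S ∧ ¬ Three G S

end H39.PS
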