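/- PS tower: the numerical check of the multiply transitive case for 22 ≤ n < 2^17. -/
import Cfsg.Agent.H39.PSSpec

set_option autoImplicit false

namespace H39.PS
open Finset

def force {β : Type} (x : ℕ) (f : ℕ → β) : β :=
  match x with
  | 0 => f 0
  | k + 1 => f (k + 1)

theorem force_eq {β : Type} (x : ℕ) (f : ℕ → β) : force x f = f x := by cases x <;> rfl

def DD : ℕ := 18446744073709551616
def HH : ℕ := 9223372036854775808

def pw : ℕ → ℕ → ℕ
  | 0, Y => Y
  | i + 1, Y => force (Y * Y / DD + 1) (pw i)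

def ee (j Y : ℕ) : ℕ := min HH (DD - pw (j + 1) Y)
def ny (W Y E : ℕ) : ℕ := Y - Y * (DD - 2 * E) / (DD * W)
def nq (fn Q E : ℕ) : ℕ := Q - Q * (E * fn / DD) / DD

def loop (fn W j c : ℕ) : ℕ → ℕ → ℕ → ℕ → ℕ
  | 0, _, _, P => P
  | m + 1, Y, Q, P => if c * Q ≤ DD then 3 * P else
    force (ee j Y) fun E => force (ny W Y E) fun Y' => force (nq fn Q E) fun Q' =>
      force (P * (DD + m * Q) / DD + 1) fun P' => loop fn W j c m Y' Q' P'

/-- The state after `l` steps. -/
def st (fn W j : ℕ) : ℕ → ℕ × ℕ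
  | 0 => (DD, DD)
  | l + 1 => (ny W (st fn W j l).1 (ee j (st fn W j l).1), nq fn (st fn W j l).2 (ee j (st fn W j l).1))

theorem DD_pos : (0 : ℝ) < DD := by norm_num [DD]
theorem DD_eq : (DD : ℝ) = 2 * HH := by norm_num [DD, HH]

theorem ceil_le (x : ℕ) : (x : ℝ) / DD ≤ (x / DD + 1 : ℕ) := by
  rw [div_le_iff₀ DD_pos]
  have : x < (x / DD + 1) * DD := by
    rw [mul_comm]; exact Nat.lt_mul_div_succ x (by norm_num [DD])
  exact_mod_cast this.le

theorem pw_le (i Y : ℕ) : ((Y : ℝ) / DD) ^ 2 ^ i ≤ pw i Y / DD := by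
  induction i generalizing Y with
  | zero => simp [pw]
  | succ i ih =>
    rw [pw, force_eq, pow_succ' 2 i, pow_mul]
    refine le_trans (pow_le_pow_left₀ (by positivity) ?_ _) (ih _)
    have := ceil_le (Y * Y)
    rw [div_pow, sq, sq, ← div_div]
    exact div_le_div_of_nonneg_right (by exact_mod_cast this) DD_pos.le

theorem st_le (fn W j l : ℕ) : (st fn W j l).1 ≤ DD := by
  induction l with
  | zero => exact le_rfl
  | succ l ih => exact (Nat.sub_le _ _).trans ih

theorem st_anti (fn W j l i : ℕ) : (st fn W j (l + i)).2 ≤ (st fn W j l).2 := by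
  induction i with
  | zero => exact le_rfl
  | succ i ih => exact (Nat.sub_le _ _).trans ih

/-- The real sequence `Q`. -/
noncomputable def qq (fn W j l : ℕ) : ℝ := (st fn W j l).2 / DD

theorem qq_nonneg (fn W j l : ℕ) : 0 ≤ qq fn W j l := by unfold qq; positivity

theorem sub_ge (a b : ℕ) : (a : ℝ) - b ≤ (a - b : ℕ) := by
  rcases le_total b a with h | h
  · rw [Nat.cast_sub h]
  · rw [Nat.sub_eq_zero_of_le h]; simpa using h

theorem par (fn W j w v : ℕ) (hw : w ≤ W) (hv : 2 ^ j ≤ v) (h2 : 2 * v ≤ w)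
    (hf : (fn : ℝ) * w ≤ DD * ((w : ℝ) - v)) : Par w v (qq fn W j) := by
  have hD := DD_pos
  have hv1 : 1 ≤ v := (Nat.one_le_two_pow).trans hv
  have hw0 : (0 : ℝ) < w := by exact_mod_cast (by omega : 0 < w)
  have hW : (w : ℝ) ≤ W := by exact_mod_cast hw
  refine ⟨by simp [qq, st, hD.ne'], fun l => (st fn W j l).1 / DD, fun l => ee j (st fn W j l).1 / DD,
    fun l => (ee j (st fn W j l).1 * fn / DD : ℕ) / DD, by simp [st, hD.ne'], fun l => ?_⟩
  have hY := st_le fn W j l
  simp only [qq, st]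
  generalize (st fn W j l).1 = Y at *
  generalize (st fn W j l).2 = Q at *
  have hY1 : (Y : ℝ) / DD ≤ 1 := by rw [div_le_one hD]; exact_mod_cast hY
  have hEH : ee j Y ≤ HH := min_le_left _ _
  have hE2 : 2 * ee j Y ≤ DD := by have : DD = 2 * HH := by norm_num [DD, HH]
                                   omega
  have hE2' : (2 : ℝ) * ee j Y ≤ DD := by exact_mod_cast hE2
  refine ⟨by positivity, hY1, by positivity, ?_, by positivity, by positivity, ?_, ?_, ?_, ?_⟩
  · rw [← mul_div_assoc, div_le_one hD]; exact hE2'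
  · have h1 : ((Y : ℝ) / DD) ^ (2 * v) ≤ ((Y : ℝ) / DD) ^ 2 ^ (j + 1) :=
      pow_le_pow_of_le_one (by positivity) hY1 (by rw [pow_succ]; omega)
    have h3 : ((Y : ℝ) / DD) ^ (2 * v) ≤ 1 := pow_le_one₀ (by positivity) hY1
    have h4 : ee j Y ≤ DD - pw (j + 1) Y := min_le_right _ _
    rcases le_total (pw (j + 1) Y) DD with h | h
    · have h5 : (ee j Y : ℝ) + pw (j + 1) Y ≤ DD := by exact_mod_cast (by omega : ee j Y + pw (j + 1) Y ≤ DD)
      refine h1.trans ((pw_le _ _).trans ?_)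
      rw [le_sub_iff_add_le, ← add_div, div_le_one hD]; linarith
    · have : ee j Y = 0 := by omega
      rw [this]; simpa using h3
  · have h1 : ((ee j Y * fn / DD : ℕ) : ℝ) ≤ ee j Y * fn / DD := by
      simpa using Nat.cast_div_le (α := ℝ) (m := ee j Y * fn) (n := DD)
    have h3 : (ee j Y : ℝ) * fn / DD * w ≤ ee j Y * ((w : ℝ) - v) := by
      rw [div_mul_eq_mul_div, div_le_iff₀ hD]
      nlinarith [mul_le_mul_of_nonneg_left hf (Nat.cast_nonneg (α := ℝ) (ee j Y))]
    rw [div_mul_eq_mul_div, div_mul_eq_mul_div]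
    exact div_le_div_of_nonneg_right ((mul_le_mul_of_nonneg_right h1 hw0.le).trans h3) hD.le
  · rw [ny, div_mul_eq_mul_div]
    refine div_le_div_of_nonneg_right (le_trans ?_ (sub_ge _ _)) hD.le
    have h1 : ((Y * (DD - 2 * ee j Y) / (DD * W) : ℕ) : ℝ) ≤ Y * (DD - 2 * ee j Y) / (DD * W) := by
      have := Nat.cast_div_le (α := ℝ) (m := Y * (DD - 2 * ee j Y)) (n := DD * W)
      rwa [Nat.cast_mul, Nat.cast_mul, Nat.cast_sub hE2, Nat.cast_mul, Nat.cast_ofNat] at this
    have h3 : (Y : ℝ) * (DD - 2 * ee j Y) / (DD * W) ≤ Y * (DD - 2 * ee j Y) / (DD * w) :=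
      div_le_div_of_nonneg_left (mul_nonneg (by positivity) (by linarith)) (by positivity)
        (mul_le_mul_of_nonneg_left hW hD.le)
    have h4 : (Y : ℝ) * (1 - (1 - 2 * (ee j Y / DD)) / w) = Y - Y * (DD - 2 * ee j Y) / (DD * w) := by
      field_simp
    rw [h4]; linarith
  · rw [nq, div_mul_eq_mul_div]
    refine div_le_div_of_nonneg_right (le_trans ?_ (sub_ge _ _)) hD.le
    have h1 := Nat.cast_div_le (α := ℝ) (m := Q * (ee j Y * fn / DD)) (n := DD)
    rw [Nat.cast_mul] at h1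
    rw [mul_sub, mul_one, ← mul_div_assoc]; linarith

theorem loop_ge (fn W j c N : ℕ) (hc : N * N ≤ c) (m l P : ℕ) (hm : m ≤ N) :
    (P : ℝ) * ∏ i ∈ range m, (1 + ((m - 1 - i : ℕ) : ℝ) * qq fn W j (l + i)) ≤
      loop fn W j c m (st fn W j l).1 (st fn W j l).2 P := by
  have hD := DD_pos
  induction m generalizing l P with
  | zero => simp [loop]
  | succ m ih =>
    rw [loop]
    split_ifs with h
    · have h1 : ∏ i ∈ range (m + 1), (1 + ((m + 1 - 1 - i : ℕ) : ℝ) * qq fn W j (l + i)) ≤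
          ∏ i ∈ range (m + 1), Real.exp (N * qq fn W j l) := by
        refine prod_le_prod (fun i _ => by have := qq_nonneg fn W j (l + i); positivity) fun i _ => ?_
        refine le_trans ?_ (Real.add_one_le_exp _)
        rw [add_comm]
        refine add_le_add_left (mul_le_mul (by exact_mod_cast (by omega)) ?_ (qq_nonneg _ _ _ _)
          (by positivity)) _
        exact div_le_div_of_nonneg_right (by exact_mod_cast st_anti fn W j l i) hD.le
      have h2 : ((m + 1 : ℕ) : ℝ) * (N * qq fn W j l) ≤ 1 := by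
        have h3 : (m + 1) * (N * (st fn W j l).2) ≤ DD := by
          rw [← mul_assoc]
          exact (Nat.mul_le_mul_right _ ((Nat.mul_le_mul_right _ hm).trans hc)).trans h
        rw [qq, ← mul_div_assoc, ← mul_div_assoc, div_le_one hD]; exact_mod_cast h3
      rw [prod_const, card_range, ← Real.exp_nat_mul] at h1
      have h4 := (Real.exp_le_exp.2 h2).trans Real.exp_one_lt_d9.le
      rw [Nat.cast_mul, mul_comm ((3 : ℕ) : ℝ)]
      exact mul_le_mul_of_nonneg_left (h1.trans (h4.trans (by norm_num))) (by positivity)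
    · simp only [force_eq]
      refine le_trans ?_ (ih (l + 1) _ (by omega))
      rw [prod_range_succ', mul_comm (∏ _ ∈ _, _), ← mul_assoc]
      refine mul_le_mul ?_ (le_of_eq (prod_congr rfl fun i _ => ?_))
        (prod_nonneg fun i _ => by have := qq_nonneg fn W j (l + (i + 1)); positivity) (by positivity)
      · refine le_trans (le_of_eq ?_) (ceil_le _)
        simp only [qq, add_zero, Nat.add_sub_cancel, Nat.sub_zero]
        push_cast; field_simp
      · rw [show m + 1 - 1 - (i + 1) = m - 1 - i by omega, show l + (i + 1) = l + 1 + i by omega]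

theorem Pr_mono {N N' : ℕ} (h : N ≤ N') {Q : ℕ → ℝ} (hQ : ∀ s, 0 ≤ Q s) : Pr N Q ≤ Pr N' Q := by
  refine le_trans (prod_le_prod (fun i _ => by have := hQ i; positivity) fun i _ => ?_)
    (prod_le_prod_of_subset_of_one_le (range_subset_range.2 h)
      (fun i _ => by have := hQ i; positivity) fun i _ _ => ?_)
  · exact add_le_add_right (mul_le_mul_of_nonneg_right (by exact_mod_cast (by omega)) (hQ i)) _
  · have := hQ i
    exact le_add_of_nonneg_right (by positivity)

def fnn (w1 j : ℕ) : ℕ := max HH ((w1 - (2 ^ (j + 1) - 1)) * DD / w1)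

def rng (n1 n2 t1 t2 : ℕ) : Bool :=
  decide (t2 < n1) && force (4 ^ n1 / n2 ^ (t2 - 2)) fun B =>
    (List.range (n2 - t1).log2).all fun j => decide (loop (fnn (n1 - t2) j) (n2 - t1) j
      (if n2 - t1 ≤ 62 then DD + 1 else (n2 - t1 + 2) * (n2 - t1 + 2)) (n2 - t1 + 2) DD DD 1 ≤ B)

theorem rng_ok {n1 n2 t1 t2 : ℕ} (h : rng n1 n2 t1 t2 = true) {n t v : ℕ} (h1 : n1 ≤ n) (h2 : n ≤ n2)
    (h3 : t1 ≤ t) (h4 : t ≤ t2) (hv : 1 ≤ v) (hw : 2 * v ≤ n - t) :
    ∃ Q, Par (n - t) v Q ∧ (n.descFactorial (t - 2) : ℝ) * Pr (n - t + 2) Q ≤ 4 ^ n := by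
  simp only [rng, force_eq, Bool.and_eq_true, decide_eq_true_eq, List.all_eq_true, List.mem_range] at h
  obtain ⟨ht, h⟩ := h
  have hD := DD_pos
  have hj : 2 ^ v.log2 ≤ v := Nat.log2_self_le (by omega)
  have hj' : v < 2 ^ (v.log2 + 1) := Nat.lt_log2_self
  have hl : v.log2 < (n2 - t1).log2 := by
    rw [Nat.lt_iff_add_one_le, Nat.le_log2 (by omega), pow_succ]; omega
  have hb := h _ hl
  refine ⟨qq (fnn (n1 - t2) v.log2) (n2 - t1) v.log2, par _ _ _ _ _ (by omega) hj hw ?_, ?_⟩
  · have hw' : (2 : ℝ) * v ≤ (n - t : ℕ) := by exact_mod_cast hw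
    rcases max_choice HH ((n1 - t2 - (2 ^ (v.log2 + 1) - 1)) * DD / (n1 - t2)) with e | e
    · rw [fnn, e, DD_eq]; nlinarith [Nat.cast_nonneg (α := ℝ) HH]
    · rw [fnn, e]
      generalize 2 ^ (v.log2 + 1) = u at *
      have h5 : (n1 - t2 - (u - 1)) * DD / (n1 - t2) * (n1 - t2) ≤ (n1 - t2 - v) * DD :=
        (Nat.div_mul_le_self _ _).trans (Nat.mul_le_mul_right _ (by omega))
      generalize (n1 - t2 - (u - 1)) * DD / (n1 - t2) = f at *
      have h6 : n1 - t2 ≤ n - t := by omega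
      have h7 : 1 ≤ n1 - t2 := by omega
      generalize n1 - t2 = w1 at *
      generalize n - t = w at *
      rcases le_total v w1 with h8 | h8
      · have h9 : (f : ℝ) * w1 ≤ (w1 - v) * DD := by rw [← Nat.cast_sub h8]; exact_mod_cast h5
        have h6' : (w1 : ℝ) ≤ w := by exact_mod_cast h6
        have h7' : (1 : ℝ) ≤ w1 := by exact_mod_cast h7
        have hv' : (0 : ℝ) ≤ v := by positivity
        have hf : (f : ℝ) ≤ DD := by
          by_contra hc
          nlinarith [mul_nonneg hv' hD.le]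
        nlinarith
      · have : f = 0 := by
          rw [Nat.sub_eq_zero_of_le h8, zero_mul] at h5
          rcases Nat.mul_eq_zero.1 (Nat.le_zero.1 h5) with e | e <;> omega
        rw [this]; simp only [Nat.cast_zero, zero_mul]
        exact mul_nonneg hD.le (by linarith [Nat.cast_nonneg (α := ℝ) v])
  · have hp := loop_ge (fnn (n1 - t2) v.log2) (n2 - t1) v.log2
      (if n2 - t1 ≤ 62 then DD + 1 else (n2 - t1 + 2) * (n2 - t1 + 2)) (n2 - t1 + 2) (by
        split_ifs with e
        · exact (Nat.mul_le_mul (by omega : _ ≤ 64) (by omega : _ ≤ 64)).trans (by norm_num [DD])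
        · exact le_rfl) (n2 - t1 + 2) 0 1 le_rfl
    simp only [Nat.cast_one, one_mul, zero_add, st] at hp
    have h5 : Pr (n - t + 2) (qq (fnn (n1 - t2) v.log2) (n2 - t1) v.log2) ≤
        (4 ^ n1 / n2 ^ (t2 - 2) : ℕ) :=
      (Pr_mono (by omega) (qq_nonneg _ _ _)).trans (hp.trans (by exact_mod_cast hb))
    have h6 : n.descFactorial (t - 2) * (4 ^ n1 / n2 ^ (t2 - 2)) ≤ 4 ^ n :=
      (Nat.mul_le_mul_right _ ((Nat.descFactorial_le_pow _ _).trans ((Nat.pow_le_pow_left h2 _).trans
        (Nat.pow_le_pow_right (by omega) (by omega))))).trans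
        ((Nat.mul_div_le _ _).trans (Nat.pow_le_pow_right (by norm_num) h1))
    exact (mul_le_mul_of_nonneg_left h5 (by positivity)).trans (by exact_mod_cast h6)

def isP (p : ℕ) : Bool :=
  decide (2 ≤ p) && decide (p < 160000) && (List.range 400).all fun d =>
    decide (d < 2) || decide (p < d * d) || decide (p % d ≠ 0)

theorem isP_ok {p : ℕ} (h : isP p = true) : p.Prime := by
  simp only [isP, Bool.and_eq_true, decide_eq_true_eq, List.all_eq_true, List.mem_range,
    Bool.or_eq_true] at h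
  refine Nat.prime_def_le_sqrt.2 ⟨h.1.1, fun d hd hs hdv => ?_⟩
  have hs' := Nat.le_sqrt.1 hs
  have : d < 400 := by by_contra hc; nlinarith [h.1.2]
  rcases h.2 d this with (e | e) | e
  · omega
  · omega
  · exact e (Nat.mod_eq_zero_of_dvd hdv)

/-- A chain of records `(n2, k, p, m)` covering `[n1, z)`. -/
def chain (z : ℕ) : ℕ → List (ℕ × ℕ × ℕ × ℕ) → Bool
  | n1, [] => decide (z ≤ n1)
  | n1, (n2, k, p, m) :: L => isP p && decide (1 ≤ k ∧ k < p ∧ k * p + k < n1 ∧ k * p + 3 ≤ n1) &&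
    rng n1 n2 2 m && (decide (n2 - k * p ≤ m) || rng n1 n2 (m + 1) (n2 - k * p)) && chain z (n2 + 1) L

theorem chain_ok (z : ℕ) (L : List (ℕ × ℕ × ℕ × ℕ)) (n1 : ℕ) (h : chain z n1 L = true) (n : ℕ)
    (h1 : n1 ≤ n) (h2 : n < z) : Num2 n := by
  induction L generalizing n1 with
  | nil => simp only [chain, decide_eq_true_eq] at h; omega
  | cons x L ih =>
    obtain ⟨n2, k, p, m⟩ := x
    simp only [chain, Bool.and_eq_true, decide_eq_true_eq, Bool.or_eq_true] at h
    obtain ⟨⟨⟨⟨hp, hk1, hk2, hk3, hk4⟩, ha⟩, hb⟩, hc⟩ := h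
    by_cases hn : n ≤ n2
    · refine ⟨n - k * p, ⟨k, p, isP_ok hp, by omega, hk1, hk2, by omega, by omega⟩,
        fun t v ht htr hv hw => ?_⟩
      by_cases htm : t ≤ m
      · exact rng_ok ha h1 hn ht htm hv hw
      · exact rng_ok (hb.resolve_left (by omega)) h1 hn (by omega) (by omega) hv hw
    · exact ih _ hc (by omega)

theorem c0 : chain 6006 22
    [(23, 1, 19, 4), (24, 1, 19, 2), (27, 2, 11, 4), (28, 1, 23, 5), (31, 2, 13, 2), (34, 1, 29, 5),
    (37, 1, 31, 3), (40, 2, 17, 2), (44, 2, 19, 6), (47, 1, 41, 6), (50, 1, 43, 7), (54, 1, 47, 7),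
    (58, 3, 17, 7), (61, 1, 53, 8), (67, 1, 59, 8), (71, 2, 31, 9), (76, 1, 67, 9), (84, 2, 37, 10),
    (93, 2, 41, 11), (101, 1, 89, 12), (110, 1, 97, 13), (121, 1, 107, 14), (134, 2, 59, 16), (148,
    1, 131, 17), (165, 2, 73, 19), (185, 1, 163, 22), (205, 1, 181, 24), (226, 1, 199, 27), (253, 1,
    223, 30), (284, 1, 251, 33), (319, 1, 281, 38), (359, 1, 317, 42), (401, 1, 353, 48), (449, 1,
    397, 52), (501, 1, 443, 58), (565, 1, 499, 66), (637, 1, 563, 74), (717, 1, 631, 86), (805, 1,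
    709, 96), (901, 1, 797, 104), (1005, 1, 887, 118), (1133, 1, 997, 136), (1277, 1, 1129, 148),
    (1429, 1, 1259, 170), (1605, 1, 1427, 178), (1813, 1, 1601, 212), (2053, 1, 1811, 242), (2309,
    1, 2039, 270), (2597, 1, 2297, 300), (2933, 1, 2593, 340), (3285, 1, 2927, 358), (3701, 1, 3271,
    430), (4181, 1, 3697, 484), (4725, 1, 4177, 548), (5333, 1, 4723, 610), (6005, 1, 5323, 682)] = true := by
  decide +kernel

theorem c1 : chain 26166 6006
    [(6709, 1, 5987, 722), (7541, 1, 6703, 838), (8501, 1, 7537, 964), (9525, 1, 8467, 1058), (10677,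
    1, 9521, 1156), (11957, 1, 10667, 1290), (13365, 1, 11953, 1412), (14901, 1, 13339, 1562),
    (16693, 1, 14897, 1796), (18741, 1, 16691, 2050), (20917, 1, 18731, 2186), (23349, 1, 20903,
    2446), (26165, 1, 23339, 2826)] = true := by
  decide +kernel

theorem c2 : chain 55862 26166
    [(29237, 1, 26161, 3076), (32565, 1, 29231, 3334), (36405, 1, 32563, 3842), (40501, 1, 36389,
    4112), (45109, 1, 40499, 4610), (50229, 1, 45083, 5146), (55861, 1, 50227, 5634)] = true := by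
  decide +kernel

theorem c3 : chain 93750 55862
    [(62005, 1, 55849, 6156), (68661, 1, 62003, 6658), (76341, 1, 68659, 7682), (84533, 1, 76333,
    8200), (93749, 1, 84523, 9226)] = true := by
  decide +kernel

theorem c4 : chain 140854 93750
    [(103989, 1, 93739, 10250), (115253, 1, 103981, 11272), (127541, 1, 115249, 12292), (140853, 1,
    127529, 13324)] = true := by
  decide +kernel

theorem jobN2a : N2a := fun n h1 h2 => by
  by_cases e0 : n < 6006
  · exact chain_ok _ _ _ c0 n (by omega) e0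
  by_cases e1 : n < 26166
  · exact chain_ok _ _ _ c1 n (by omega) e1
  by_cases e2 : n < 55862
  · exact chain_ok _ _ _ c2 n (by omega) e2
  by_cases e3 : n < 93750
  · exact chain_ok _ _ _ c3 n (by omega) e3
  exact chain_ok _ _ _ c4 n (by omega) (by omega)

end H39.PS
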